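import Cfsg.Agent.Chev.GraphData
import Cfsg.Agent.Chev.BN

/-! Automorphisms of the Chevalley groups coming from diagram symmetries. -/

set_option autoImplicit false

universe u

namespace Cfsg.Agent.Chev

open Cfsg.Lie
open scoped Matrix MatrixGroups

variable {D : ChevalleyDatum} {F : Type u} [Field F] {C : Cert.{u} D} {G : GData}

theorem GraphOK.map_group (h : GraphOK C G) :
    (D.group F).map (MulAut.conj (h.unit (F := F))).toMonoidHom = D.group F := by
  have hle : ∀ g ∈ D.group F, h.unit * g * (h.unit)⁻¹ ∈ D.group F := by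
    intro g hg
    have : D.group F ≤ (D.group F).comap (MulAut.conj (h.unit (F := F))).toMonoidHom := by
      nth_rw 1 [C.group_eq_closure]
      refine (Subgroup.closure_le _).mpr ?_
      rintro x ⟨r, hr, t, rfl⟩
      show h.unit * C.xu r t * (h.unit)⁻¹ ∈ D.group F
      rw [h.unit_conj_xu hr]
      exact C.xu_mem_group _ _
    exact this hg
  have hit : ∀ k : ℕ, ∀ g ∈ D.group F, h.unit ^ k * g * (h.unit ^ k)⁻¹ ∈ D.group F := by
    intro k
    induction k with
    | zero => intro g hg; simpa using hg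
    | succ k ih =>
      intro g hg
      have := hle _ (ih g hg)
      rwa [show h.unit * (h.unit ^ k * g * (h.unit ^ k)⁻¹) * (h.unit)⁻¹ =
        h.unit ^ (k + 1) * g * (h.unit ^ (k + 1))⁻¹ by rw [pow_succ']; group] at this
  refine le_antisymm ?_ fun g hg => ?_
  · rintro _ ⟨g, hg, rfl⟩
    exact hle g hg
  · refine ⟨_, hit (G.ord - 1) g hg, ?_⟩
    have hpow : h.unit (F := F) ^ G.ord = 1 := Units.ext (by rw [Units.val_pow_eq_pow_val]; exact h.gMat_pow)
    show h.unit * (h.unit ^ (G.ord - 1) * g * (h.unit ^ (G.ord - 1))⁻¹) * (h.unit)⁻¹ = g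
    rw [show h.unit * (h.unit ^ (G.ord - 1) * g * (h.unit ^ (G.ord - 1))⁻¹) * (h.unit)⁻¹ =
      h.unit ^ (G.ord - 1 + 1) * g * (h.unit ^ (G.ord - 1 + 1))⁻¹ by rw [pow_succ']; group,
      Nat.sub_add_cancel h.ord_pos, hpow, one_mul, inv_one, mul_one]

theorem GraphOK.exists_aut (h : GraphOK C G) :
    ∃ α : ↥(D.group F) ≃* ↥(D.group F), ∀ (g : ↥(D.group F)) (i : ℕ) (t : F), i < D.rank →
      (((g : GL D.Idx F) : Matrix D.Idx D.Idx F) = D.x F (D.simple i) t →
        ((α g : GL D.Idx F) : Matrix D.Idx D.Idx F) = D.x F (D.simple (G.nodeF i)) t) ∧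
      (((g : GL D.Idx F) : Matrix D.Idx D.Idx F) = D.x F (D.neg (D.simple i)) t →
        ((α g : GL D.Idx F) : Matrix D.Idx D.Idx F) = D.x F (D.neg (D.simple (G.nodeF i))) t) := by
  refine ⟨((D.group F).equivMapOfInjective (MulAut.conj (h.unit (F := F))).toMonoidHom (MulEquiv.injective _)).trans
    (MulEquiv.subgroupCongr h.map_group), fun g i t hi => ?_⟩
  have hs := C.simple_lt i hi
  refine ⟨fun e => ?_, fun e => ?_⟩
  all_goals
    show ((h.unit * (g : GL D.Idx F) * (h.unit)⁻¹ : GL D.Idx F) : Matrix D.Idx D.Idx F) = _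
    rw [C.eq_xu.mp e]
  · rw [h.unit_conj_xu hs, h.simple i hi, h.eps_simple i hi, Int.cast_one, one_mul]
    rfl
  · rw [h.unit_conj_xu (C.neg_lt _ hs), h.neg _ hs, h.simple i hi, h.eps_neg _ hs, h.eps_simple i hi,
      Int.cast_one, one_mul]
    rfl

end Cfsg.Agent.Chev
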