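import Cfsg.Agent.Chev.ReeF4Simple
import Cfsg.Agent.Chev.TwistTwoGenTools

/-! The large Ree groups are generated by two elements. -/

set_option autoImplicit false

universe u

namespace Cfsg.Agent.Chev.Ree4TwoGen

open Cfsg.Lie Cfsg.Agent.Chev Cfsg.Agent.Chev.Ree4 Cfsg.Agent.Chev.TwoGenTools
open scoped Matrix MatrixGroups

variable {K : Type u} [Field K]

theorem coprime_exp {m : ℕ} (hm : 1 ≤ m) : Nat.Coprime (4 * 2 ^ m - 3) (2 * (2 ^ m * 2 ^ m) - 1) := by
  set e := 2 ^ m with he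
  have he2 : 2 ≤ e := le_self_pow₀ (by norm_num) (by omega)
  have hsq : 2 * 2 ≤ e * e := Nat.mul_le_mul he2 he2
  rw [Nat.coprime_comm]
  by_contra hne
  obtain ⟨d, hd, hd1, hd2⟩ := Nat.Prime.not_coprime_iff_dvd.1 hne
  haveI := Fact.mk hd
  have e1 : 2 * ((e : ZMod d) * e) = 1 := by
    have := (ZMod.natCast_eq_zero_iff (2 * (e * e) - 1) d).2 hd1
    rw [Nat.cast_sub (by omega), Nat.cast_mul, Nat.cast_mul, Nat.cast_one, sub_eq_zero] at this
    exact_mod_cast this
  have e2 : 4 * (e : ZMod d) = 3 := by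
    have := (ZMod.natCast_eq_zero_iff (4 * e - 3) d).2 hd2
    rw [Nat.cast_sub (by omega), Nat.cast_mul, sub_eq_zero] at this
    exact_mod_cast this
  have e3 : (1 : ZMod d) = 0 ∨ (2 : ZMod d) = 0 := by
    right
    linear_combination 2 * (8 * e1 - (4 * (e : ZMod d) + 3) * e2) - 0 * e2
  rcases e3 with h | h
  · exact one_ne_zero h
  · have : (2 : ZMod d) * ((e : ZMod d) * e) = 0 := by rw [h, zero_mul]
    rw [e1] at this
    exact one_ne_zero this

theorem cart_vals :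
    (List.range 4).map (fun k => chevF4.cartan k 33) = [2, -1, 0, 0] ∧
    (List.range 4).map (fun k => chevF4.cartan k 24) = [0, 0, -1, 2] ∧
    (List.range 4).map (fun k => chevF4.cartan k 27) = [-1, 2, -1, 0] ∧
    (List.range 4).map (fun k => chevF4.cartan k 25) = [0, -2, 2, -1] ∧
    (List.range 4).map (fun k => chevF4.cartan k 28) = [-1, 0, 1, -1] ∧
    (List.range 4).map (fun k => chevF4.cartan k 30) = [-2, 2, 0, -1] := by
  decide +kernel

theorem neg_word : ∀ k < 4, ∀ r < 48,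
    chevF4.cartan k (act chevF4 (wdF 15) r) = - chevF4.cartan k r := by
  decide +kernel

theorem act_vals : act chevF4 (wdF 15) 33 = 14 ∧ act chevF4 (wdF 15) 24 = 23 ∧ act chevF4 (wdF 15) 27 = 20 ∧
    act chevF4 (wdF 15) 25 = 22 ∧ act chevF4 (wdF 15) 28 = 19 ∧ act chevF4 (wdF 15) 30 = 17 := by
  decide +kernel

/-- The character of the twisted torus at a root with given Cartan integers. -/
theorem tchar_tArg (m : ℕ) (x y : Kˣ) {r : ℕ} {a b c d : ℤ}
    (h : (List.range 4).map (fun k => chevF4.cartan k r) = [a, b, c, d]) :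
    tchar (tArg m (x, y)) r = x ^ ((2 : ℤ) ^ m * a + d) * y ^ ((2 : ℤ) ^ m * b + c) := by
  simp only [List.range, List.range.loop, List.map_cons, List.map_nil, List.cons.injEq, and_true] at h
  obtain ⟨h0, h1, h2, h3⟩ := h
  show ∏ k : Fin 4, tArg m (x, y) k ^ chevF4.cartan (k : ℕ) r = _
  rw [Fin.prod_univ_four]
  simp only [Fin.val_zero, Fin.val_one, Fin.val_two, show ((3 : Fin 4) : ℕ) = 3 from rfl, h0, h1, h2, h3]
  show (x ^ 2 ^ m) ^ a * (y ^ 2 ^ m) ^ b * y ^ c * x ^ d = _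
  rw [zpow_add, zpow_add, zpow_mul, zpow_mul, show ((2 : ℤ) ^ m) = ((2 ^ m : ℕ) : ℤ) by push_cast; rfl,
    zpow_natCast, zpow_natCast]
  apply Units.ext
  push_cast
  ring

theorem two_gen {m : ℕ} (hm : 1 ≤ m) (h : Ctx K m) :
    ∃ a b : ↥(tw K m), Subgroup.closure ({a, b} : Set ↥(tw K m)) = ⊤ := by
  have := h.char
  have := h.finite
  classical
  have hN : Nat.card Kˣ = 2 * (2 ^ m * 2 ^ m) - 1 := by
    rw [Nat.card_units, h.card, show 2 ^ (2 * m + 1) = 2 * (2 ^ m * 2 ^ m) by ring]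
  set e : ℕ := 2 ^ m with he
  have he2 : 2 ≤ e := le_self_pow₀ (by norm_num) (by omega)
  have hsq : 2 * 2 ≤ e * e := Nat.mul_le_mul he2 he2
  have hcastE : (2 : ℤ) ^ m = (e : ℤ) := by rw [he]; push_cast; rfl
  have hred : ∀ (u : Kˣ) (a b : ℤ), (∃ k : ℤ, a = b + k * (2 * ((e : ℤ) * e) - 1)) → u ^ a = u ^ b := by
    rintro u a b ⟨k, rfl⟩
    have : u ^ (2 * ((e : ℤ) * e) - 1) = 1 := by
      rw [show 2 * ((e : ℤ) * e) - 1 = ((Nat.card Kˣ : ℕ) : ℤ) by
        rw [hN, Nat.cast_sub (by omega)]; push_cast; ring, zpow_natCast, pow_card_eq_one']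
    rw [zpow_add, mul_comm k, zpow_mul, this, one_zpow, mul_one]
  obtain ⟨g, hg⟩ := IsCyclic.exists_generator (α := Kˣ)
  obtain ⟨v33, v24, v27, v25, v28, v30⟩ := cart_vals
  set x : Kˣ := g ^ (2 - 2 * (e : ℤ)) with hx
  have hchi : ∀ r a b c d, (List.range 4).map (fun k => chevF4.cartan k r) = [a, b, c, d] →
      tchar (tArg m (x, g)) r = g ^ ((2 - 2 * (e : ℤ)) * ((e : ℤ) * a + d) + ((e : ℤ) * b + c)) := by
    intro r a b c d hv
    rw [tchar_tArg m x g hv, hcastE, hx, ← zpow_mul, ← zpow_add]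
  have c27 : tchar (tArg m (x, g)) 27 = 1 := by
    rw [hchi _ _ _ _ _ v27, ← zpow_zero g]
    exact hred g _ _ ⟨1, by ring⟩
  have c25 : tchar (tArg m (x, g)) 25 = 1 := by
    rw [hchi _ _ _ _ _ v25, ← zpow_zero g]
    exact hred g _ _ ⟨0, by ring⟩
  have c28 : tchar (tArg m (x, g)) 28 = 1 := by
    rw [hchi _ _ _ _ _ v28, ← zpow_zero g]
    exact hred g _ _ ⟨1, by ring⟩
  set χ : Kˣ := tchar (tArg m (x, g)) 24 with hχ
  have hχe : χ = g ^ (3 - 4 * (e : ℤ)) := by
    rw [hχ, hchi _ _ _ _ _ v24]; congr 1; ring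
  have c33 : tchar (tArg m (x, g)) 33 = χ ^ e := by
    rw [hchi _ _ _ _ _ v33, hχe, ← zpow_natCast, ← zpow_mul]; congr 1; ring
  have hχgen : ∀ u : Kˣ, ∃ j : ℕ, χ ^ j = u := by
    intro u
    have hord : orderOf g = 2 * (e * e) - 1 := by rw [orderOf_eq_card_of_forall_mem_zpowers hg, hN]
    have hco : (4 * e - 3).Coprime (orderOf g) := by rw [hord]; exact coprime_exp hm
    obtain ⟨l, hl⟩ := exists_pow_eq_self_of_coprime hco
    have e' : χ⁻¹ = g ^ (4 * e - 3) := by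
      rw [hχe, ← zpow_neg, ← zpow_natCast, Nat.cast_sub (by omega)]
      congr 1
      push_cast
      ring
    have hle : Subgroup.zpowers g ≤ Subgroup.zpowers χ⁻¹ := by
      rw [Subgroup.zpowers_le, ← hl, e']
      exact pow_mem (Subgroup.mem_zpowers _) _
    have hmem := hle (hg u)
    rw [Subgroup.zpowers_inv] at hmem
    exact mem_powers_iff_mem_zpowers.mpr hmem
  set t₀ : GL chevF4.Idx K := tHom m (x, g) with ht₀
  have ht₀G : t₀ ∈ tw K m := tHom_mem h _
  set n : GL chevF4.Idx K := nk K 15 with hn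
  have hnG : n ∈ tw K m := nk_mem m 15
  have oB : bE m 27 25 28 30 (1 : K) 0 ∈ tw K m := bE_pos_mem m _ _
  have oP : pE m 33 24 (1 : K) ∈ tw K m := pE_pos_mem m _
  refine ⟨⟨bE m 27 25 28 30 (1 : K) 0 * t₀, mul_mem oB ht₀G⟩, ⟨pE m 33 24 (1 : K) * n, mul_mem oP hnG⟩, ?_⟩
  refine Subgroup.map_injective (tw K m).subtype_injective ?_
  rw [← MonoidHom.range_eq_map, Subgroup.range_subtype, MonoidHom.map_closure, Set.image_pair]
  refine le_antisymm ((Subgroup.closure_le _).mpr (Set.pair_subset (mul_mem oB ht₀G) (mul_mem oP hnG))) ?_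
  set M := Subgroup.closure
    ({bE m 27 25 28 30 (1 : K) 0 * t₀, pE m 33 24 (1 : K) * n} : Set (GL chevF4.Idx K))
  show tw K m ≤ M
  have tconj : ∀ (p : Kˣ × Kˣ) {r : ℕ}, r < 48 → ∀ t : K,
      tHom m p * cF.xu r t * (tHom m p)⁻¹ = cF.xu r ((tchar (tArg m p) r : K) * t) :=
    fun p r hr t => torusHom_conj cF _ hr t
  -- splitting
  have hB4 : bE m 27 25 28 30 (1 : K) 0 ^ 4 = 1 := by
    rw [show (4 : ℕ) = 2 * 2 from rfl, pow_mul, pow_two, pow_two, bE_mul h, bE_mul h]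
    simp [CharTwo.add_self_eq_zero, zero_pow, bE_zero]
  have hcomm : Commute (bE m 27 25 28 30 (1 : K) 0) t₀ := by
    have : t₀ * bE m 27 25 28 30 (1 : K) 0 * t₀⁻¹ = bE m 27 25 28 30 (1 : K) 0 := by
      rw [bE, zero_pow (by positivity), cF.xu_zero, mul_one, ht₀, conj_mul.symm, conj_mul.symm,
        tconj _ (by norm_num), tconj _ (by norm_num), tconj _ (by norm_num), c27, c25, c28, Units.val_one,
        one_mul, one_mul, one_mul]
    exact (mul_inv_eq_iff_eq_mul.1 this).symm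
  have ht4 : t₀ ^ Nat.card Kˣ = 1 := by
    rw [ht₀, ← map_pow, show (x, g) ^ Nat.card Kˣ = 1 from Prod.ext pow_card_eq_one' pow_card_eq_one', map_one]
  obtain ⟨hx1, hhM⟩ : bE m 27 25 28 30 (1 : K) 0 ∈ M ∧ t₀ ∈ M := by
    have hab : bE m 27 25 28 30 (1 : K) 0 * t₀ ∈ M := Subgroup.subset_closure (Or.inl rfl)
    obtain ⟨k, hk⟩ : ∃ k, 4 * k = Nat.card Kˣ + 1 := by
      have h4 : 4 ∣ 2 * (e * e) := by
        obtain ⟨m', rfl⟩ : ∃ m', m = m' + 1 := ⟨m - 1, by omega⟩
        exact ⟨2 * (2 ^ m' * 2 ^ m'), by rw [he]; ring⟩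
      obtain ⟨k, hk⟩ := h4
      exact ⟨k, by rw [hN, ← hk]; omega⟩
    have hh : t₀ ∈ M := by
      have hp := pow_mem hab (4 * k)
      rwa [hcomm.mul_pow, pow_mul, hB4, one_pow, one_mul, hk, pow_succ, ht4, one_mul] at hp
    exact ⟨by simpa using mul_mem hab (inv_mem hh), hh⟩
  have hb : pE m 33 24 (1 : K) * n ∈ M := Subgroup.subset_closure (Or.inr rfl)
  have hinv : n * t₀ * n⁻¹ = t₀⁻¹ := conj_torusHom_inv cF (nk_lt 15) neg_word _
  have conjP : ∀ t : K, t₀ * pE m 33 24 t * t₀⁻¹ = pE m 33 24 ((χ : K) * t) := by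
    intro t
    rw [pE, pE, conj_mul.symm, ht₀, tconj _ (by norm_num), tconj _ (by norm_num), c33, ← hχ, mul_pow,
      Units.val_pow_eq_pow_val]
  have conjP' : ∀ t : K, t₀⁻¹ * pE m 33 24 t * t₀ = pE m 33 24 ((χ : K)⁻¹ * t) := by
    intro t
    have := conjP ((χ : K)⁻¹ * t)
    rw [mul_inv_cancel_left₀ χ.ne_zero] at this
    rw [← this]
    group
  have pinv : (pE m 33 24 (1 : K))⁻¹ = pE m 33 24 1 := inv_eq_of_mul_eq_one_right (by
    rw [pE_add h, CharTwo.add_self_eq_zero]; simp [pE, zero_pow, cF.xu_zero])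
  set c₀ : K := 1 + (χ : K)⁻¹ with hc₀
  have hc₀M : pE m 33 24 c₀ ∈ M := by
    have h3 := mul_mem (mul_mem (mul_mem hb hhM) (inv_mem hb)) hhM
    rw [show pE m 33 24 (1 : K) * n * t₀ * (pE m 33 24 (1 : K) * n)⁻¹ * t₀ =
      pE m 33 24 1 * ((n * t₀ * n⁻¹) * (pE m 33 24 (1 : K))⁻¹ * t₀) by group, hinv, pinv, conjP', pE_add h,
      mul_one] at h3
    exact h3
  have hχ1 : (χ : K) ≠ 1 := by
    intro e1
    obtain ⟨j, hj⟩ := hχgen g
    rw [show χ = 1 from Units.ext e1, one_pow] at hj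
    have := orderOf_eq_card_of_forall_mem_zpowers hg
    rw [← hj, orderOf_one, hN] at this
    omega
  have hc₀ne : c₀ ≠ 0 := fun e1 => hχ1 (inv_eq_one.mp (CharTwo.add_eq_zero.mp e1).symm)
  have powconj : ∀ (j : ℕ) (t : K), pE m 33 24 t ∈ M → pE m 33 24 ((χ : K) ^ j * t) ∈ M := by
    intro j
    induction j with
    | zero => intro t ht; simpa using ht
    | succ j ih =>
      intro t ht
      have := mul_mem (mul_mem hhM (ih t ht)) (inv_mem hhM)
      rwa [conjP, ← mul_assoc, ← pow_succ'] at this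
  have fullP : ∀ t : K, pE m 33 24 t ∈ M := by
    intro t
    by_cases ht : t = 0
    · rw [ht, show pE m 33 24 (0 : K) = 1 by simp [pE, zero_pow, cF.xu_zero]]; exact one_mem M
    obtain ⟨j, hj⟩ := hχgen (Units.mk0 (t / c₀) (div_ne_zero ht hc₀ne))
    have := powconj j c₀ hc₀M
    rwa [← Units.val_pow_eq_pow_val, hj, Units.val_mk0, div_mul_cancel₀ _ hc₀ne] at this
  have hnM : n ∈ M := by simpa using mul_mem (inv_mem (fullP 1)) hb
  have hW : ∀ a ∈ wdF 15, a < chevF4.rank := nk_lt 15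
  obtain ⟨a1, a2, a3, a4, a5, a6⟩ := act_vals
  have negP : ∀ t : K, pE m 14 23 t ∈ M := by
    intro t
    have := mul_mem (mul_mem hnM (fullP t)) (inv_mem hnM)
    rwa [hn, nk, pE, conj_mul.symm, cF.conj_xu_two hW (by decide), cF.conj_xu_two hW (by decide), a1, a2] at this
  -- the torus of the pair
  have hnu : ∀ z : K, cF.nu 33 (z ^ 2 ^ m) * cF.nu 24 z ∈ M := by
    intro z
    obtain ⟨⟨-, -, a3'⟩, -, -, -, n1, n2, -, -, -, n6, -, -, c1, c2⟩ := base_facts
    set a := z ^ 2 ^ m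
    set A := cF.xu 33 a
    set B := cF.xu 24 z
    set A' := cF.xu 14 (-a⁻¹)
    set B' := cF.xu 23 (-z⁻¹)
    have ab : Commute A B := xu_commute (by norm_num) (by norm_num) (by norm_num) (by rw [n1]; norm_num) a3' _ _
    have ab' : Commute A B' := xu_commute (by norm_num) (by norm_num) (by norm_num) (by rw [n1]; norm_num) c1 _ _
    have a'b : Commute A' B := xu_commute (by norm_num) (by norm_num) (by norm_num) (by rw [n6]; norm_num) c2 _ _
    have e1 : cF.nu 33 a * cF.nu 24 z = A * B * (A' * B') * (A * B) := by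
      rw [cF.nu_eq, cF.nu_eq, n1, n2]
      calc A * A' * A * (B * B' * B) = A * A' * (A * B) * (B' * B) := by group
        _ = A * (A' * B) * (A * B') * B := by rw [ab.eq]; group
        _ = A * B * (A' * B') * (A * B) := by rw [a'b.eq, ab'.eq]; group
    have hA' : A' * B' = pE m 14 23 z⁻¹ := by
      show _ = cF.xu 14 (z⁻¹ ^ 2 ^ m) * cF.xu 23 z⁻¹
      simp only [A', B', a, CharTwo.neg_eq, inv_pow]
    rw [e1, hA']
    exact mul_mem (mul_mem (fullP z) (negP _)) (fullP z)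
  have hfst : ∀ z : Kˣ, tHom m (z, 1) ∈ M := by
    intro z
    obtain ⟨⟨-, -, a3'⟩, ⟨-, -, b3⟩, -, -, n1, n2, -, -, -, n6, -, -, c1, c2⟩ := base_facts
    have hcomm2 : ∀ a b : K, Commute (cF.nu 33 a) (cF.nu 24 b) := by
      intro a b
      have h1 : ∀ t v : K, Commute (cF.xu 33 t) (cF.xu 24 v) := fun t v =>
        xu_commute (by norm_num) (by norm_num) (by norm_num) (by rw [n1]; norm_num) a3' t v
      have h2 : ∀ t v : K, Commute (cF.xu 33 t) (cF.xu 23 v) := fun t v =>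
        xu_commute (by norm_num) (by norm_num) (by norm_num) (by rw [n1]; norm_num) c1 t v
      have h3 : ∀ t v : K, Commute (cF.xu 14 t) (cF.xu 24 v) := fun t v =>
        xu_commute (by norm_num) (by norm_num) (by norm_num) (by rw [n6]; norm_num) c2 t v
      have h4 : ∀ t v : K, Commute (cF.xu 14 t) (cF.xu 23 v) := fun t v =>
        xu_commute (by norm_num) (by norm_num) (by norm_num) (by rw [n6]; norm_num) b3 t v
      rw [cF.nu_eq, cF.nu_eq, n1, n2]
      have k1 : Commute (cF.xu 33 a) (cF.xu 24 b * cF.xu 23 (-b⁻¹) * cF.xu 24 b) :=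
        ((h1 _ _).mul_right (h2 _ _)).mul_right (h1 _ _)
      have k2 : Commute (cF.xu 14 (-a⁻¹)) (cF.xu 24 b * cF.xu 23 (-b⁻¹) * cF.xu 24 b) :=
        ((h3 _ _).mul_right (h4 _ _)).mul_right (h3 _ _)
      exact (k1.mul_left k2).mul_left k1
    rw [tHom_fst, cF.hu_two, cF.hu_two,
      show cF.nu 33 ((z : K) ^ 2 ^ m) * cF.nu 33 1 * (cF.nu 24 (z : K) * cF.nu 24 1) =
        (cF.nu 33 ((z : K) ^ 2 ^ m) * cF.nu 24 (z : K)) * (cF.nu 33 1 * cF.nu 24 1) by
          rw [mul_assoc, ← mul_assoc (cF.nu 33 1), (hcomm2 1 (z : K)).eq]; group]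
    refine mul_mem (hnu _) ?_
    have := hnu (1 : K)
    rwa [one_pow] at this
  -- the class of type B₂
  have fullT : ∀ t : K, bE m 27 25 28 30 t 0 ∈ M := by
    intro t
    by_cases ht : t = 0
    · rw [ht, bE_zero]; exact one_mem M
    set z : Kˣ := (Units.mk0 t ht)⁻¹ with hz
    have := mul_mem (mul_mem (hfst z) hx1) (inv_mem (hfst z))
    have d : ∀ r a b c d', (List.range 4).map (fun k => chevF4.cartan k r) = [a, b, c, d'] →
        tchar (tArg m (z, 1)) r = Units.mk0 t ht ^ (-((e : ℤ) * a + d')) := by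
      intro r a b c d' hv
      rw [tchar_tArg m z 1 hv, hcastE, one_zpow, mul_one, hz, inv_zpow']
    rw [bE, zero_pow (by positivity), cF.xu_zero, mul_one, conj_mul.symm, conj_mul.symm, tconj _ (by norm_num),
      tconj _ (by norm_num), tconj _ (by norm_num), d _ _ _ _ _ v27, d _ _ _ _ _ v25, d _ _ _ _ _ v28] at this
    rw [bE, zero_pow (by positivity), cF.xu_zero, mul_one, add_zero]
    simp only [one_pow, add_zero, mul_one] at this
    rw [show -((e : ℤ) * -1) = ((e : ℕ) : ℤ) by ring, show -((e : ℤ) * 0 + -1) = ((1 : ℕ) : ℤ) by norm_num,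
      show -((e : ℤ) * -1 + -1) = ((e + 1 : ℕ) : ℤ) by push_cast; ring, zpow_natCast, zpow_natCast, zpow_natCast,
      pow_one, Units.val_pow_eq_pow_val, Units.val_pow_eq_pow_val, Units.val_mk0] at this
    exact this
  have fullU : ∀ u : K, bE m 27 25 28 30 0 u ∈ M := by
    intro u
    have := mul_mem (inv_mem (fullT (1 + u))) (mul_mem (fullT 1) (fullT u))
    rw [bE_mul h, one_pow, one_mul, add_zero, add_zero] at this
    have e1 : bE m 27 25 28 30 (1 + u) 0 * bE m 27 25 28 30 0 u = bE m 27 25 28 30 (1 + u) u := by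
      rw [bE_mul h, add_zero, mul_zero, zero_add, zero_add]
    rw [← e1, inv_mul_cancel_left] at this
    exact this
  have fullB : ∀ t u : K, bE m 27 25 28 30 t u ∈ M := by
    intro t u
    have := mul_mem (fullT t) (fullU u)
    rwa [bE_mul h, add_zero, mul_zero, zero_add, zero_add] at this
  have negB : ∀ t u : K, bE m 20 22 19 17 t u ∈ M := by
    intro t u
    have := mul_mem (mul_mem hnM (fullB t u)) (inv_mem hnM)
    rwa [hn, nk, bE, conj_mul.symm, conj_mul.symm, conj_mul.symm, cF.conj_xu_two hW (by decide),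
      cF.conj_xu_two hW (by decide), cF.conj_xu_two hW (by decide), cF.conj_xu_two hW (by decide),
      a3, a4, a5, a6] at this
  exact tw_le (fun t => ⟨fullP t, negP t⟩) fun t u => ⟨fullB t u, negB t u⟩

end Cfsg.Agent.Chev.Ree4TwoGen
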