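import Cfsg.Agent.Chev.TwistE6
import Cfsg.Agent.Chev.TwistTwoGenTools
import Cfsg.Agent.Chev.TwistWeyl

/-! The groups ²E₆(q) are generated by two elements. -/

set_option autoImplicit false

universe u

namespace Cfsg.Agent.Chev.E6TwoGen

open Cfsg.Lie Cfsg.Agent.Chev Cfsg.Agent.Chev.TwoGenTools
open scoped Matrix MatrixGroups

section generic

variable {D : ChevalleyDatum} {K : Type u} [Field K] {C : Cert.{u} D} (S : Twist C K)

/-- All orbit elements of a root lie in the subgroup. -/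
def Full (M : Subgroup (GL D.Idx K)) (r : ℕ) : Prop := ∀ t : K, S.Valid r t → S.oe r t ∈ M

theorem commute_of_nil (C : Cert.{u} D) {a b : ℕ} (ha : a < D.nroots) (hb : b < D.nroots)
    (h : b ≠ a ∧ b ≠ D.neg a ∧ D.commTerms a b = []) (t v : K) : Commute (C.xu a t) (C.xu b v) := by
  have := C.xu_comm ha hb h.1 h.2.1 t v
  simp only [ChevalleyDatum.commWord, h.2.2, List.map_nil, Cert.wu, List.prod_nil, mul_one] at this
  exact this.symm

/-- A fixed Weyl word moves orbit elements. -/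
theorem rot_step {W : List ℕ} (hW : ∀ a ∈ W, a < D.rank) (hn : S.sigma (C.nWordElt K W) = C.nWordElt K W)
    {r : ℕ} (hr : r < D.nroots) (hper : S.G.per (act D W r) = S.G.per r) :
    ∃ d : K, d ≠ 0 ∧ S.Valid r d ∧
      ∀ v : K, C.nWordElt K W * S.oe r v * (C.nWordElt K W)⁻¹ = S.oe (act D W r) (d * v) := by
  obtain ⟨d, hd, e⟩ := C.nWordElt_conj_xu (F := K) hW hr
  refine ⟨d, hd, ?_, fun v => S.conj_oe hn hper (e v)⟩
  have hk : ∀ k, (S.sigma)^[k] (C.nWordElt K W) = C.nWordElt K W := fun k => Function.iterate_fixed hn k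
  have hki : ∀ k, (S.sigma)^[k] (C.nWordElt K W)⁻¹ = (C.nWordElt K W)⁻¹ := fun k =>
    Function.iterate_fixed (by rw [map_inv, hn]) k
  have h1 : (S.sigma)^[S.G.per r] (C.xu r 1) = C.xu r 1 := S.sigma_per_xu hr (S.valid_one r)
  have h2 : (S.sigma)^[S.G.per r] (C.xu (act D W r) d) = C.xu (act D W r) d := by
    have := e 1
    rw [mul_one] at this
    rw [← this, S.iterate_mul, S.iterate_mul, hk, hki, h1]
  have hl := C.act_lt hW hr
  rw [← hper, S.sigma_iter_xu hl, S.ok.iter_per hl, S.eProd_per hl, one_mul, hper] at h2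
  exact C.xu_inj hl h2

theorem full_rot {M : Subgroup (GL D.Idx K)} {W : List ℕ} (hW : ∀ a ∈ W, a < D.rank)
    (hn : S.sigma (C.nWordElt K W) = C.nWordElt K W) (hnM : C.nWordElt K W ∈ M) {r g : ℕ}
    (h : r < D.nroots ∧ act D W r = g ∧ S.G.per g = S.G.per r) (hf : Full S M r) : Full S M g := by
  obtain ⟨hr, rfl, hper⟩ := h
  intro t ht
  obtain ⟨d, hd, hdv, e⟩ := rot_step S hW hn hr hper
  have hv : S.Valid r (t / d) := by
    unfold Twist.Valid at ht hdv ⊢
    rw [hper] at ht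
    rw [← RingHom.coe_pow, map_div₀, RingHom.coe_pow, ht, hdv]
  have := mul_mem (mul_mem hnM (hf _ hv)) (inv_mem hnM)
  rwa [e, mul_div_cancel₀ _ hd] at this

theorem full_rho {M : Subgroup (GL D.Idx K)} (hord : S.G.ord = 2) {r g : ℕ}
    (h : r < D.nroots ∧ S.G.rhoF r = g ∧ S.G.per r = 2 ∧ S.G.per g = 2) (hf : Full S M r) : Full S M g := by
  obtain ⟨hr, rfl, hper, -⟩ := h
  intro t _
  set e : K := ((S.G.epsF r : ℤ) : K) with he
  have hv : S.Valid r (S.τ (e * t)) := S.valid_of_per_ord (by rw [hper, hord]) _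
  have h2 : ∀ x : K, S.τ (S.τ x) = x := fun x => by
    have := S.tau_pow x
    rwa [hord] at this
  have := hf _ hv
  rwa [← S.oe_rho hr hv, h2, ← he, ← mul_assoc, S.ok.graph.eps_sq (F := K), one_mul] at this

theorem oe_two {r : ℕ} (hp : S.G.per r = 2) (t : K) : S.oe r t = C.xu r t * S.sigma (C.xu r t) := by
  rw [Twist.oe, hp, show List.range 2 = [0, 1] from rfl]
  simp

theorem oe_one {r : ℕ} (hp : S.G.per r = 1) (t : K) : S.oe r t = C.xu r t := by
  rw [Twist.oe, hp, show List.range 1 = [0] from rfl]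
  simp

/-- The data of a commutator of two moved orbits with a single fundamental term. -/
def CommOK (D : ChevalleyDatum) (G : GData) (r s g : ℕ) (c : ℤ) : Prop :=
  r < D.nroots ∧ s < D.nroots ∧ g < D.nroots ∧ G.rhoF r < D.nroots ∧ G.rhoF s < D.nroots ∧
  G.per r = 2 ∧ G.per s = 2 ∧ s ≠ r ∧ s ≠ D.neg r ∧ D.commTerms r s = [(g, c, 1, 1)] ∧ (c = 1 ∨ c = -1) ∧
  (s ≠ G.rhoF r ∧ s ≠ D.neg (G.rhoF r) ∧ D.commTerms (G.rhoF r) s = []) ∧
  (G.rhoF s ≠ r ∧ G.rhoF s ≠ D.neg r ∧ D.commTerms r (G.rhoF s) = []) ∧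
  (G.rhoF r ≠ g ∧ G.rhoF r ≠ D.neg g ∧ D.commTerms g (G.rhoF r) = []) ∧
  (G.rhoF s ≠ g ∧ G.rhoF s ≠ D.neg g ∧ D.commTerms g (G.rhoF s) = [])

/-- The commutator of two full orbits gives all products `z · σ z`. -/
theorem comm_pair {M : Subgroup (GL D.Idx K)} (hord : S.G.ord = 2) {r s g : ℕ} {c : ℤ}
    (h : CommOK D S.G r s g c) (hfr : Full S M r) (hfs : Full S M s) (p : K) :
    C.xu g p * S.sigma (C.xu g p) ∈ M := by
  obtain ⟨hr, hs, hg, hr', hs', pr, ps, hne, hneg, hcom, hc, h1, h2, h3, h4⟩ := h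
  set u : K := -((c : K) * p) with hu
  have hA := hfr (1 : K) (S.valid_one r)
  have hB := hfs u (S.valid_of_per_ord (by rw [ps, hord]) u)
  rw [oe_two S pr] at hA
  rw [oe_two S ps] at hB
  have hsig : ∀ x : ℕ, x < D.nroots → ∀ t : K, ∃ w : K, S.sigma (C.xu x t) = C.xu (S.G.rhoF x) w := fun x hx t =>
    ⟨_, S.sigma_xu hx t⟩
  obtain ⟨w1, ea⟩ := hsig r hr 1
  obtain ⟨w2, eb⟩ := hsig s hs u
  have hrel : C.xu s u * C.xu r 1 = C.xu r 1 * C.xu s u * C.xu g p := by
    have := C.xu_comm hr hs hne hneg (1 : K) u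
    simp only [ChevalleyDatum.commWord, hcom, List.map_cons, List.map_nil, Cert.wu, List.prod_cons, List.prod_nil,
      mul_one, pow_one] at this
    have hcc : (c : K) * c = 1 := by rcases hc with rfl | rfl <;> simp
    rwa [show (c : K) * -1 * u = p by rw [hu]; linear_combination p * hcc] at this
  have hrel' := congrArg S.sigma hrel
  rw [map_mul, map_mul, map_mul] at hrel'
  set a₁ := C.xu r (1 : K)
  set b₁ := C.xu s u
  set a₂ := S.sigma a₁
  set b₂ := S.sigma b₁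
  set z := C.xu g p
  set z' := S.sigma z
  have c1 : Commute a₂ b₁ := by rw [ea]; exact commute_of_nil C hr' hs h1 _ _
  have c2 : Commute a₁ b₂ := by rw [eb]; exact commute_of_nil C hr hs' h2 _ _
  have c3 : Commute z a₂ := by rw [ea]; exact commute_of_nil C hg hr' h3 _ _
  have c4 : Commute z b₂ := by rw [eb]; exact commute_of_nil C hg hs' h4 _ _
  have key : b₁ * b₂ * (a₁ * a₂) = a₁ * a₂ * (b₁ * b₂) * (z * z') :=
    calc b₁ * b₂ * (a₁ * a₂) = b₁ * a₁ * (b₂ * a₂) := by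
          rw [show b₁ * b₂ * (a₁ * a₂) = b₁ * (b₂ * a₁) * a₂ by group, ← c2.eq]; group
      _ = a₁ * b₁ * z * (a₂ * b₂ * z') := by rw [hrel, hrel']
      _ = a₁ * b₁ * (a₂ * (z * b₂)) * z' := by
          rw [show a₁ * b₁ * z * (a₂ * b₂ * z') = a₁ * b₁ * (z * a₂) * b₂ * z' by group, c3.eq]; group
      _ = a₁ * (b₁ * a₂) * b₂ * (z * z') := by rw [c4.eq]; group
      _ = a₁ * a₂ * (b₁ * b₂) * (z * z') := by rw [← c1.eq]; group
  have := mul_mem (inv_mem (mul_mem hA hB)) (mul_mem hB hA)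
  rwa [key, inv_mul_cancel_left] at this

theorem full_comm_short {M : Subgroup (GL D.Idx K)} (hord : S.G.ord = 2) {r s g : ℕ} {c : ℤ}
    (h : CommOK D S.G r s g c ∧ S.G.per g = 2) (hfr : Full S M r) (hfs : Full S M s) : Full S M g := by
  intro t _
  rw [oe_two S h.2]
  exact comm_pair S hord h.1 hfr hfs t

theorem full_comm_long {M : Subgroup (GL D.Idx K)} (hord : S.G.ord = 2) {r s g : ℕ} {c : ℤ}
    (h : CommOK D S.G r s g c ∧ S.G.per g = 1 ∧ S.G.rhoF g = g) (hfr : Full S M r) (hfs : Full S M s)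
    (hθ : ∃ θ : K, θ + S.τ θ ≠ 0) : Full S M g := by
  obtain ⟨h, hp, hfix⟩ := h
  intro t ht
  have hg := h.2.2.1
  rw [oe_one S hp]
  obtain ⟨θ, hθ⟩ := hθ
  have h2 : ∀ x : K, S.τ (S.τ x) = x := fun x => by
    have := S.tau_pow x
    rwa [hord] at this
  have htt : S.τ t = t := by
    unfold Twist.Valid at ht
    rwa [hp, Function.iterate_one] at ht
  have := comm_pair S hord h hfr hfs (t * θ / (θ + S.τ θ))
  rw [S.sigma_xu hg, hfix, S.ok.eps_fixed g hg hfix, Int.cast_one, one_mul, C.xu_add] at this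
  convert this using 2
  rw [map_div₀, map_add, map_mul, h2, htt, add_comm (S.τ θ) θ, ← add_div, ← mul_add, mul_div_cancel_right₀ _ hθ]

theorem oe_pow {r : ℕ} (hr : D.IsPosRoot r) (a : K) (n : ℕ) : S.oe r a ^ n = S.oe r ((n : K) * a) := by
  induction n with
  | zero => rw [pow_zero, Nat.cast_zero, zero_mul, S.oe_zero hr.1]
  | succ n ih => rw [pow_succ, ih, S.oe_add hr, Nat.cast_succ, add_mul, one_mul]

end generic

theorem conj_torusHom_of_eq {D : ChevalleyDatum} {K : Type u} [Field K] (C : Cert.{u} D) {W : List ℕ}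
    (hW : ∀ a ∈ W, a < D.rank) {c c' : Fin D.rank → Kˣ}
    (h : ∀ r < D.nroots, tchar c' (act D W r) = tchar c r) :
    C.nWordElt K W * C.torusHom c * (C.nWordElt K W)⁻¹ = C.torusHom c' := by
  set n := C.nWordElt K W with hn
  set t := C.torusHom c with ht
  set t' := C.torusHom c' with ht'
  rw [← mul_inv_eq_one]
  have hd : n * t * n⁻¹ * t'⁻¹ ∈ D.diagonalSubgroup K :=
    mul_mem (C.monomial_conj_diagonal (C.nWordElt_mem hW) (C.torusHom_mem c)) (inv_mem (C.torusHom_mem c'))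
  obtain ⟨χ, hχ, -, e⟩ := C.diagonal_char hd
  refine Units.ext ?_
  rw [e, Units.val_one, ← dMat_one]
  refine dMat_congr fun s hs => ?_
  have key : n * t * n⁻¹ * t'⁻¹ * C.xu s 1 * (n * t * n⁻¹ * t'⁻¹)⁻¹ = C.xu s (χ s) := by
    have : n * t * n⁻¹ * t'⁻¹ * C.xu s 1 = C.xu s (χ s * 1) * (n * t * n⁻¹ * t'⁻¹) :=
      Units.ext (by
        show (n * t * n⁻¹ * t'⁻¹ : GL D.Idx K).1 * (C.xu s 1).1 =
          (C.xu s (χ s * 1)).1 * (n * t * n⁻¹ * t'⁻¹ : GL D.Idx K).1
        rw [e, C.coe_xu, C.coe_xu]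
        exact C.dMat_conj hχ hs 1)
    rw [this, mul_inv_cancel_right, mul_one]
  obtain ⟨r, hr, hrs⟩ : ∃ r < D.nroots, act D W r = s :=
    ⟨act D W.reverse s, C.act_lt (fun a ha => hW a (List.mem_reverse.mp ha)) hs, act_reverse_right C hW hs⟩
  obtain ⟨d, hd', ed⟩ := C.nWordElt_conj_xu (F := K) hW hr
  rw [hrs, ← hn] at ed
  have e1 : t'⁻¹ * C.xu s 1 * t' = C.xu s ((tchar c' s : K)⁻¹) := by
    have := torusHom_conj C c' hs ((tchar c' s : K)⁻¹)
    rw [mul_inv_cancel₀ (Units.ne_zero _), ← ht'] at this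
    rw [← this]
    group
  have h1 : n * t * n⁻¹ * t'⁻¹ * C.xu s 1 * (n * t * n⁻¹ * t'⁻¹)⁻¹ = C.xu s 1 := by
    rw [show n * t * n⁻¹ * t'⁻¹ * C.xu s 1 * (n * t * n⁻¹ * t'⁻¹)⁻¹ =
      n * t * n⁻¹ * (t'⁻¹ * C.xu s 1 * t') * n * t⁻¹ * n⁻¹ by group, e1]
    have ec' : C.xu s ((tchar c' s : K)⁻¹) = n * C.xu r (d⁻¹ * (tchar c' s : K)⁻¹) * n⁻¹ := by
      rw [ed, mul_inv_cancel_left₀ hd']
    rw [ec', show n * t * n⁻¹ * (n * C.xu r (d⁻¹ * (tchar c' s : K)⁻¹) * n⁻¹) * n * t⁻¹ * n⁻¹ =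
      n * (t * C.xu r (d⁻¹ * (tchar c' s : K)⁻¹) * t⁻¹) * n⁻¹ by group, ht, torusHom_conj C c hr, ed,
      ← h r hr, hrs]
    congr 1
    field_simp
  exact C.xu_inj hs (key.symm.trans h1)

/-- The Weyl word of node orbits used below. -/
def wE6 : List ℕ := [0, 1, 2, 3]

/-- The first weight combination. -/
def expA : List ℤ := [-2, -2, -2, -2, -1, 0]

/-- The second weight combination. -/
def expB : List ℤ := [0, 0, 1, 0, 0, 0]

/-- The exponent of `ζ` in a character. -/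
def pP (A : List ℤ) (r : ℕ) : ℤ := ∑ k ∈ Finset.range 6, A.getD k 0 * chevE6.cartan k r

/-- The exponent of `τ ζ` in a character. -/
def pQ (A : List ℤ) (r : ℕ) : ℤ := ∑ k ∈ Finset.range 6, A.getD (gE6.nodeF k) 0 * chevE6.cartan k r

theorem dataA : pP expA 42 = 0 ∧ pQ expA 42 = 0 ∧ pP expA 49 = 0 ∧ pQ expA 49 = -3 := by decide +kernel

theorem dataB : pP expB 42 = 2 ∧ pQ expB 42 = 0 ∧
    ∀ r < chevE6.nroots, (pP expB (act chevE6 (gE6.oWord wE6) r) + 2 * pQ expB (act chevE6 (gE6.oWord wE6) r)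
      - (pP expB r + 2 * pQ expB r)) % 3 = 0 := by
  decide +kernel

theorem dataN : chevE6.simple 0 = 56 ∧ chevE6.simple 1 = 46 ∧ chevE6.simple 2 = 42 ∧ chevE6.simple 3 = 39 ∧
    chevE6.neg 56 = 15 ∧ chevE6.neg 46 = 25 ∧ chevE6.neg 42 = 29 ∧ chevE6.neg 39 = 32 ∧
    act chevE6 (gE6.oWord wE6) 42 = 49 ∧ gE6.per 42 = 2 ∧ gE6.per 49 = 2 ∧ 42 < chevE6.nroots ∧
    49 < chevE6.nroots ∧ (∀ a ∈ wE6, a < chevE6.rank) := by
  decide +kernel

theorem pos49 : chevE6.IsPosRoot 49 :=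
  (posT_iff allOKE6 (by decide +kernel)).mp (by decide +kernel)

/-- A rotation list. -/
def rotOK (l : List (ℕ × ℕ)) : Prop :=
  ∀ p ∈ l, p.1 < chevE6.nroots ∧ act chevE6 (gE6.oWord wE6) p.1 = p.2 ∧ gE6.per p.2 = gE6.per p.1

theorem rot_data : rotOK [(49, 59), (59, 50), (50, 41), (41, 35), (35, 34), (34, 10), (10, 26), (26, 23), (23, 13),
    (13, 56), (56, 42), (51, 65), (65, 44), (44, 47), (47, 25), (25, 11), (11, 20), (20, 6), (6, 27), (27, 24),
    (24, 46), (52, 66), (69, 71), (71, 70), (70, 53), (53, 39), (39, 8), (8, 2), (2, 0), (0, 1), (1, 18), (18, 32)] := by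
  unfold rotOK
  decide +kernel

theorem op_dataR :
    (35 < chevE6.nroots ∧ gE6.rhoF 35 = 15 ∧ gE6.per 35 = 2 ∧ gE6.per 15 = 2) ∧
    (34 < chevE6.nroots ∧ gE6.rhoF 34 = 29 ∧ gE6.per 34 = 2 ∧ gE6.per 29 = 2) ∧
    (50 < chevE6.nroots ∧ gE6.rhoF 50 = 48 ∧ gE6.per 50 = 2 ∧ gE6.per 48 = 2) := by
  decide +kernel

theorem op_data51 : CommOK chevE6 gE6 42 48 51 1 ∧ gE6.per 51 = 1 ∧ gE6.rhoF 51 = 51 := by
  unfold CommOK
  decide +kernel

theorem op_data52 : CommOK chevE6 gE6 42 49 52 1 ∧ gE6.per 52 = 2 := by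
  unfold CommOK
  decide +kernel

theorem op_data69 : CommOK chevE6 gE6 42 66 69 1 ∧ gE6.per 69 = 1 ∧ gE6.rhoF 69 = 69 := by
  unfold CommOK
  decide +kernel

theorem op_data :
    (35 < chevE6.nroots ∧ gE6.rhoF 35 = 15 ∧ gE6.per 35 = 2 ∧ gE6.per 15 = 2) ∧
    (34 < chevE6.nroots ∧ gE6.rhoF 34 = 29 ∧ gE6.per 34 = 2 ∧ gE6.per 29 = 2) ∧
    (50 < chevE6.nroots ∧ gE6.rhoF 50 = 48 ∧ gE6.per 50 = 2 ∧ gE6.per 48 = 2) ∧
    (CommOK chevE6 gE6 42 48 51 1 ∧ gE6.per 51 = 1 ∧ gE6.rhoF 51 = 51) ∧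
    (CommOK chevE6 gE6 42 49 52 1 ∧ gE6.per 52 = 2) ∧
    (CommOK chevE6 gE6 42 66 69 1 ∧ gE6.per 69 = 1 ∧ gE6.rhoF 69 = 69) := by
  exact ⟨op_dataR.1, op_dataR.2.1, op_dataR.2.2, op_data51, op_data52, op_data69⟩

variable {K : Type u} [Field K] (τ : K →+* K) (hτ : ∀ x, (τ)^[2] x = x)

theorem exists_trace_ne : ∃ θ : K, θ + (tE6 τ hτ).τ θ ≠ 0 ∨ ∀ x : K, τ x = x := by
  by_cases h : ∀ x : K, τ x = x
  · exact ⟨0, Or.inr h⟩
  push Not at h
  obtain ⟨x, hx⟩ := h
  by_contra hno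
  push Not at hno
  have h1 : (1 : K) + τ 1 = 0 := (hno 1).1
  rw [map_one] at h1
  have h2 : x + τ x = 0 := (hno x).1
  exact hx (by linear_combination h2 - x * h1)

/-- A subgroup containing the Weyl word and one full moved orbit is everything. -/
theorem small_le_of_full {M : Subgroup (GL chevE6.Idx K)} (hne : ∃ x : K, τ x ≠ x)
    (hnM : (AllOK.cert.{u} allOKE6).nWordElt K (gE6.oWord wE6) ∈ M) (h49 : Full (tE6 τ hτ) M 49) :
    (tE6 τ hτ).small ≤ M := by
  set S := tE6 τ hτ with hS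
  obtain ⟨s0, s1, s2, s3, n0, n1, n2, n3, -, -, -, -, -, hw⟩ := dataN
  have hW : ∀ a ∈ gE6.oWord wE6, a < chevE6.rank := S.oWord_lt hw
  have hn : S.sigma ((AllOK.cert.{u} allOKE6).nWordElt K (gE6.oWord wE6)) =
      (AllOK.cert.{u} allOKE6).nWordElt K (gE6.oWord wE6) := S.nSeq_fixed hw
  have hθ : ∃ θ : K, θ + S.τ θ ≠ 0 := by
    obtain ⟨θ, hθ | hθ⟩ := exists_trace_ne τ hτ
    · exact ⟨θ, hθ⟩
    · obtain ⟨x, hx⟩ := hne; exact absurd (hθ x) hx
  have rot : ∀ {r g : ℕ}, (r, g) ∈ [(49, 59), (59, 50), (50, 41), (41, 35), (35, 34), (34, 10), (10, 26), (26, 23),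
      (23, 13), (13, 56), (56, 42), (51, 65), (65, 44), (44, 47), (47, 25), (25, 11), (11, 20), (20, 6), (6, 27),
      (27, 24), (24, 46), (52, 66), (69, 71), (71, 70), (70, 53), (53, 39), (39, 8), (8, 2), (2, 0), (0, 1), (1, 18),
      (18, 32)] → Full S M r → Full S M g := fun {r g} hm hf =>
    full_rot S hW hn hnM (rot_data (r, g) hm) hf
  obtain ⟨o1, o2, o3, o4, o5, o6⟩ := op_data
  have hord : S.G.ord = 2 := by
    show gE6.ord = 2
    decide +kernel
  have f59 := rot (g := 59) (by simp) h49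
  have f50 := rot (g := 50) (by simp) f59
  have f41 := rot (g := 41) (by simp) f50
  have f35 := rot (g := 35) (by simp) f41
  have f34 := rot (g := 34) (by simp) f35
  have f10 := rot (g := 10) (by simp) f34
  have f26 := rot (g := 26) (by simp) f10
  have f23 := rot (g := 23) (by simp) f26
  have f13 := rot (g := 13) (by simp) f23
  have f56 := rot (g := 56) (by simp) f13
  have f42 := rot (g := 42) (by simp) f56
  have f15 : Full S M 15 := full_rho S hord o1 f35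
  have f29 : Full S M 29 := full_rho S hord o2 f34
  have f48 : Full S M 48 := full_rho S hord o3 f50
  have f51 : Full S M 51 := full_comm_long S hord o4 f42 f48 hθ
  have f65 := rot (g := 65) (by simp) f51
  have f44 := rot (g := 44) (by simp) f65
  have f47 := rot (g := 47) (by simp) f44
  have f25 := rot (g := 25) (by simp) f47
  have f11 := rot (g := 11) (by simp) f25
  have f20 := rot (g := 20) (by simp) f11
  have f6 := rot (g := 6) (by simp) f20
  have f27 := rot (g := 27) (by simp) f6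
  have f24 := rot (g := 24) (by simp) f27
  have f46 := rot (g := 46) (by simp) f24
  have f52 : Full S M 52 := full_comm_short S hord o5 f42 h49
  have f66 := rot (g := 66) (by simp) f52
  have f69 : Full S M 69 := full_comm_long S hord o6 f42 f66 hθ
  have f71 := rot (g := 71) (by simp) f69
  have f70 := rot (g := 70) (by simp) f71
  have f53 := rot (g := 53) (by simp) f70
  have f39 := rot (g := 39) (by simp) f53
  have f8 := rot (g := 8) (by simp) f39
  have f2 := rot (g := 2) (by simp) f8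
  have f0 := rot (g := 0) (by simp) f2
  have f1 := rot (g := 1) (by simp) f0
  have f18 := rot (g := 18) (by simp) f1
  have f32 := rot (g := 32) (by simp) f18
  refine S.small_le_of_reps (R := [0, 1, 2, 3]) ?_ ?_
  · show ∀ j < chevE6.rank, ∃ i ∈ [0, 1, 2, 3], i < chevE6.rank ∧ j ∈ gE6.ow i
    decide +kernel
  intro i hi t ht
  have hsl : chevE6.simple i < chevE6.nroots ∧ i < chevE6.rank := by
    simp only [List.mem_cons, List.not_mem_nil, or_false] at hi
    rcases hi with rfl | rfl | rfl | rfl <;> decide +kernel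
  have ht' := (S.valid_neg_simple hsl.2).mpr ht
  simp only [List.mem_cons, List.not_mem_nil, or_false] at hi
  rcases hi with rfl | rfl | rfl | rfl
  · rw [s0] at ht ht' ⊢; rw [n0] at ht' ⊢; exact ⟨f56 t ht, f15 t ht'⟩
  · rw [s1] at ht ht' ⊢; rw [n1] at ht' ⊢; exact ⟨f46 t ht, f25 t ht'⟩
  · rw [s2] at ht ht' ⊢; rw [n2] at ht' ⊢; exact ⟨f42 t ht, f29 t ht'⟩
  · rw [s3] at ht ht' ⊢; rw [n3] at ht' ⊢; exact ⟨f39 t ht, f32 t ht'⟩

/-- The torus parameter attached to a list of exponents. -/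
def cOf (ζ : Kˣ) (A : List ℤ) : Fin chevE6.rank → Kˣ :=
  fun k => ζ ^ A.getD k 0 * Units.map (τ : K →* K) ζ ^ A.getD (gE6.nodeF k) 0

theorem tchar_cOf (ζ : Kˣ) (A : List ℤ) (r : ℕ) :
    tchar (cOf τ ζ A) r = ζ ^ pP A r * Units.map (τ : K →* K) ζ ^ pQ A r := by
  have hsum : ∀ (x : Kˣ) (f : ℕ → ℤ), x ^ (∑ k ∈ Finset.range 6, f k) = ∏ k ∈ Finset.range 6, x ^ f k := by
    intro x f
    induction Finset.range 6 using Finset.induction_on with
    | empty => simp
    | insert a s ha ih => rw [Finset.sum_insert ha, Finset.prod_insert ha, zpow_add, ih]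
  have hr : chevE6.rank = 6 := by decide +kernel
  rw [pP, pQ, hsum, hsum, ← Finset.prod_mul_distrib]
  show ∏ k : Fin chevE6.rank, cOf τ ζ A k ^ chevE6.cartan (k : ℕ) r = _
  rw [← hr, Finset.prod_range]
  refine Finset.prod_congr rfl fun k _ => ?_
  rw [cOf, mul_zpow, ← zpow_mul, ← zpow_mul]

theorem shift_cOf (ζ : Kˣ) (A : List ℤ) : (tE6 τ hτ).shift (cOf τ ζ A) = cOf τ ζ A := by
  set S := tE6 τ hτ
  funext j
  obtain ⟨k, rfl⟩ := S.nodeEquiv.surjective j
  refine (S.shift_node _ k).trans ?_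
  show Units.map (τ : K →* K) (cOf τ ζ A k) = cOf τ ζ A (S.nodeFin k)
  have hnn : ∀ k < chevE6.rank, gE6.nodeF (gE6.nodeF k) = k := by decide +kernel
  have hTT : Units.map (τ : K →* K) (Units.map (τ : K →* K) ζ) = ζ := Units.ext (hτ (ζ : K))
  rw [cOf, cOf, map_mul, map_zpow, map_zpow, hTT]
  show _ = ζ ^ A.getD (gE6.nodeF k) 0 * Units.map (τ : K →* K) ζ ^ A.getD (gE6.nodeF (gE6.nodeF k)) 0
  rw [hnn k k.isLt, mul_comm]

variable [Fintype K]

theorem two_gen_big {q : ℕ} (hbig : 3 ≤ q) (hq : IsPrimePow q) (hK : Fintype.card K = q ^ 2) (hτq : ∀ x, τ x = x ^ q) :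
    ∃ a b : ↥(tE6 τ hτ).small, Subgroup.closure ({a, b} : Set ↥(tE6 τ hτ).small) = ⊤ := by
  classical
  set S := tE6 τ hτ with hS
  let C := AllOK.cert.{u} allOKE6
  obtain ⟨s0, s1, s2, s3, n0, n1, n2, n3, a42, p42, p49, l42, l49, hw⟩ := dataN
  have hW : ∀ a ∈ gE6.oWord wE6, a < chevE6.rank := S.oWord_lt hw
  have hn : S.sigma (C.nWordElt K (gE6.oWord wE6)) = C.nWordElt K (gE6.oWord wE6) := S.nSeq_fixed hw
  have hnS : C.nWordElt K (gE6.oWord wE6) ∈ S.small := S.nSeq_mem hw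
  have i2 : 2 < chevE6.rank := by decide +kernel
  have pos42 : chevE6.IsPosRoot 42 := s2 ▸ C.pos_simple i2
  have hord : S.G.ord = 2 := by
    show gE6.ord = 2
    decide +kernel
  have v2 : ∀ r, S.G.per r = 2 → ∀ t : K, S.Valid r t := fun r hp t => S.valid_of_per_ord (by rw [hp, hord]) t
  have o42 : S.oe 42 (1 : K) ∈ S.small := s2 ▸ S.oe_simple_mem i2 (S.valid_one _)
  have hq2 : 2 ≤ q := hq.two_le
  have hN : Nat.card Kˣ = q ^ 2 - 1 := by rw [Nat.card_units, Nat.card_eq_fintype_card, hK]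
  obtain ⟨ζ, hζ⟩ := IsCyclic.exists_generator (α := Kˣ)
  have hTz : Units.map (τ : K →* K) ζ = ζ ^ q := Units.ext (by simp [hτq])
  have hord' : orderOf ζ = q ^ 2 - 1 := by rw [orderOf_eq_card_of_forall_mem_zpowers hζ, hN]
  have h4 : 2 * q ≤ q ^ 2 := by nlinarith
  have hne : ∃ x : K, τ x ≠ x := by
    refine ⟨ζ, fun e => ?_⟩
    have e' : ζ ^ (q - 1) = 1 := by
      refine mul_right_cancel (b := ζ) ?_
      rw [← pow_succ, Nat.sub_add_cancel (by omega), one_mul, ← hTz]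
      exact Units.ext e
    have := Nat.le_of_dvd (by omega) (orderOf_dvd_of_pow_eq_one e')
    omega
  have conjh : ∀ A : List ℤ, ∀ r, r < chevE6.nroots → ∀ t : K,
      C.torusHom (cOf τ ζ A) * S.oe r t * (C.torusHom (cOf τ ζ A))⁻¹ =
        S.oe r ((tchar (cOf τ ζ A) r : K) * t) := fun A r hr t =>
    S.conj_oe (S.small_le_fixed (S.torusHom_mem_small (shift_cOf τ hτ ζ A))) rfl (torusHom_conj C _ hr t)
  set h := C.torusHom (cOf τ ζ expA) with hh
  have hhS : h ∈ S.small := S.torusHom_mem_small (shift_cOf τ hτ ζ expA)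
  obtain ⟨a1, a2, a3, a4⟩ := dataA
  refine ⟨⟨S.oe 42 1 * h, mul_mem o42 hhS⟩, ⟨C.nWordElt K (gE6.oWord wE6), hnS⟩, ?_⟩
  refine Subgroup.map_injective S.small.subtype_injective ?_
  rw [← MonoidHom.range_eq_map, Subgroup.range_subtype, MonoidHom.map_closure, Set.image_pair]
  refine le_antisymm ((Subgroup.closure_le _).mpr (Set.pair_subset (mul_mem o42 hhS) hnS)) ?_
  set M := Subgroup.closure
    ({S.oe 42 (1 : K) * h, C.nWordElt K (gE6.oWord wE6)} : Set (GL chevE6.Idx K))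
  show S.small ≤ M
  have hnM : C.nWordElt K (gE6.oWord wE6) ∈ M := Subgroup.subset_closure (Or.inr rfl)
  have hc42 : tchar (cOf τ ζ expA) 42 = 1 := by rw [tchar_cOf, a1, a2, zpow_zero, zpow_zero, mul_one]
  obtain ⟨hx, hhM⟩ := split_char (K := K) (M := M) (Subgroup.subset_closure (Or.inl rfl))
    (show Commute (S.oe 42 (1 : K)) h by
      have := conjh expA 42 l42 (1 : K)
      rw [hc42, Units.val_one, one_mul, ← hh, mul_inv_eq_iff_eq_mul] at this
      exact this.symm)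
    (fun p hp => by rw [oe_pow S pos42, hp, zero_mul, S.oe_zero l42])
    (torusHom_pow_card C _)
  obtain ⟨d, hd, -, e⟩ := rot_step S hW hn l42 (show S.G.per (act chevE6 (gE6.oWord wE6) 42) = S.G.per 42 by
    rw [a42]; exact p49.trans p42.symm)
  have h49d : S.oe 49 d ∈ M := by
    have := mul_mem (mul_mem hnM hx) (inv_mem hnM)
    rwa [e, mul_one, a42] at this
  set χ : Kˣ := tchar (cOf τ ζ expA) 49 with hχ
  have hχe : χ = (ζ ^ (3 * q))⁻¹ := by
    rw [hχ, tchar_cOf, a3, a4, zpow_zero, one_mul, hTz, ← zpow_natCast, ← zpow_mul, ← zpow_natCast, ← zpow_neg]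
    congr 1
    push_cast
    ring
  have hordχ : q ≤ orderOf χ := by
    rw [hχe, orderOf_inv]
    have hco : Nat.Coprime q (q ^ 2 - 1) := by
      rw [Nat.coprime_comm]
      by_contra hne'
      obtain ⟨d, hd, hd1, hd2⟩ := Nat.Prime.not_coprime_iff_dvd.1 hne'
      have h1 : d ∣ q ^ 2 := hd2.trans (dvd_pow_self q (by norm_num))
      have h3 := Nat.dvd_sub h1 hd1
      rw [Nat.sub_sub_self (Nat.one_le_pow _ _ (by omega))] at h3
      exact hd.one_lt.ne' (Nat.dvd_one.mp h3)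
    have h3 : (ζ ^ (3 * q)) ^ orderOf (ζ ^ (3 * q)) = 1 := pow_orderOf_eq_one _
    rw [← pow_mul] at h3
    have h5 := orderOf_dvd_of_pow_eq_one h3
    rw [hord', show 3 * q * orderOf (ζ ^ (3 * q)) = q * (3 * orderOf (ζ ^ (3 * q))) by ring] at h5
    have h6 := Nat.le_of_dvd (Nat.mul_pos (by norm_num) (orderOf_pos _)) (hco.symm.dvd_of_dvd_mul_left h5)
    have h7 : 3 * q ≤ q ^ 2 + 1 := by nlinarith
    have h8 : 3 * (q - 1) < q ^ 2 - 1 := by omega
    omega
  let A : AddSubgroup K :=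
    { carrier := {t | S.oe 49 t ∈ M}
      zero_mem' := by show S.oe 49 (0 : K) ∈ M; rw [S.oe_zero l49]; exact one_mem M
      add_mem' := fun {a b} ha hb => by
        have := mul_mem (show S.oe 49 a ∈ M from ha) (show S.oe 49 b ∈ M from hb)
        rwa [S.oe_add pos49] at this
      neg_mem' := fun {a} ha => by
        have := inv_mem (show S.oe 49 a ∈ M from ha)
        rwa [S.oe_inv pos49] at this }
  let R : Subring K :=
    { carrier := {a | ∀ t ∈ A, a * t ∈ A}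
      mul_mem' := fun {a b} ha hb t ht => by rw [mul_assoc]; exact ha _ (hb t ht)
      one_mem' := fun t ht => by rwa [one_mul]
      add_mem' := fun {a b} ha hb t ht => by rw [add_mul]; exact A.add_mem (ha t ht) (hb t ht)
      zero_mem' := fun t _ => by rw [zero_mul]; exact A.zero_mem
      neg_mem' := fun {a} ha t ht => by rw [neg_mul]; exact A.neg_mem (ha t ht) }
  have hχR : (χ : K) ∈ R := by
    intro t ht
    have := mul_mem (mul_mem hhM (show S.oe 49 t ∈ M from ht)) (inv_mem hhM)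
    rwa [conjh expA 49 l49, ← hχ] at this
  have hinvR : ∀ b ∈ R, b ≠ 0 → b⁻¹ ∈ R := by
    intro b hb hb0
    have h1 := FiniteField.pow_card_sub_one_eq_one b hb0
    have h2 : b⁻¹ = b ^ (Fintype.card K - 2) := by
      refine inv_eq_of_mul_eq_one_right ?_
      rw [← pow_succ']
      rw [show Fintype.card K - 2 + 1 = Fintype.card K - 1 by omega, h1]
    rw [h2]
    exact pow_mem hb _
  have hRtop : ∀ x : K, x ∈ R := by
    by_contra hno
    push Not at hno
    obtain ⟨x, hx'⟩ := hno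
    have hinj : Function.Injective fun p : ↥R × ↥R => (p.1 : K) + (p.2 : K) * x := by
      rintro ⟨⟨a, ha⟩, ⟨b, hb⟩⟩ ⟨⟨a', ha'⟩, ⟨b', hb'⟩⟩ e'
      simp only at e'
      by_cases hbb : b = b'
      · subst hbb
        simp only [Prod.mk.injEq, Subtype.mk.injEq]
        exact ⟨add_right_cancel e', trivial⟩
      · exfalso
        apply hx'
        have : x = (b - b')⁻¹ * (a' - a) := by
          have hb0 : b - b' ≠ 0 := sub_ne_zero.mpr hbb
          field_simp
          linear_combination e'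
        rw [this]
        exact mul_mem (hinvR _ (R.sub_mem hb hb') (sub_ne_zero.mpr hbb)) (R.sub_mem ha' ha)
    have hcard := Nat.card_le_card_of_injective _ hinj
    rw [Nat.card_prod, Nat.card_eq_fintype_card (α := K), hK, pow_two] at hcard
    have hlt : q < Nat.card ↥R := by
      have hin : Function.Injective
          (fun j : Option (Fin (orderOf χ)) => (j.elim (0 : ↥R) fun i => ⟨(χ : K) ^ (i : ℕ), pow_mem hχR _⟩)) := by
        rintro (_ | ⟨i, hi⟩) (_ | ⟨j, hj⟩) e'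
        · rfl
        · exact absurd (congrArg Subtype.val e').symm (pow_ne_zero _ χ.ne_zero)
        · exact absurd (congrArg Subtype.val e') (pow_ne_zero _ χ.ne_zero)
        · have e'' : (χ : K) ^ i = (χ : K) ^ j := congrArg Subtype.val e'
          congr 1
          apply Fin.ext
          exact pow_injOn_Iio_orderOf hi hj (Units.ext (by simpa using e''))
      have := Nat.card_le_card_of_injective _ hin
      rw [Nat.card_eq_fintype_card, Fintype.card_option, Fintype.card_fin] at this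
      omega
    have := Nat.mul_lt_mul'' hlt hlt
    omega
  have h49 : Full S M 49 := by
    intro t _
    have := hRtop (t / d) d h49d
    rw [div_mul_cancel₀ _ hd] at this
    exact this
  exact small_le_of_full τ hτ hne hnM h49

theorem two_gen_four {q : ℕ} (hq' : q = 2) (hq : IsPrimePow q) (hK : Fintype.card K = q ^ 2) (hτq : ∀ x, τ x = x ^ q) :
    ∃ a b : ↥(tE6 τ hτ).small, Subgroup.closure ({a, b} : Set ↥(tE6 τ hτ).small) = ⊤ := by
  classical
  set S := tE6 τ hτ with hS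
  let C := AllOK.cert.{u} allOKE6
  obtain ⟨s0, s1, s2, s3, n0, n1, n2, n3, a42, p42, p49, l42, l49, hw⟩ := dataN
  have hW : ∀ a ∈ gE6.oWord wE6, a < chevE6.rank := S.oWord_lt hw
  have hn : S.sigma (C.nWordElt K (gE6.oWord wE6)) = C.nWordElt K (gE6.oWord wE6) := S.nSeq_fixed hw
  have hnS : C.nWordElt K (gE6.oWord wE6) ∈ S.small := S.nSeq_mem hw
  have i2 : 2 < chevE6.rank := by decide +kernel
  have pos42 : chevE6.IsPosRoot 42 := s2 ▸ C.pos_simple i2
  have hord : S.G.ord = 2 := by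
    show gE6.ord = 2
    decide +kernel
  have v2 : ∀ r, S.G.per r = 2 → ∀ t : K, S.Valid r t := fun r hp t => S.valid_of_per_ord (by rw [hp, hord]) t
  have o42 : S.oe 42 (1 : K) ∈ S.small := s2 ▸ S.oe_simple_mem i2 (S.valid_one _)
  have hq2 : 2 ≤ q := hq.two_le
  have hN : Nat.card Kˣ = q ^ 2 - 1 := by rw [Nat.card_units, Nat.card_eq_fintype_card, hK]
  obtain ⟨ζ, hζ⟩ := IsCyclic.exists_generator (α := Kˣ)
  have hTz : Units.map (τ : K →* K) ζ = ζ ^ q := Units.ext (by simp [hτq])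
  have hord' : orderOf ζ = q ^ 2 - 1 := by rw [orderOf_eq_card_of_forall_mem_zpowers hζ, hN]
  have h4 : 2 * q ≤ q ^ 2 := by nlinarith
  have hne : ∃ x : K, τ x ≠ x := by
    refine ⟨ζ, fun e => ?_⟩
    have e' : ζ ^ (q - 1) = 1 := by
      refine mul_right_cancel (b := ζ) ?_
      rw [← pow_succ, Nat.sub_add_cancel (by omega), one_mul, ← hTz]
      exact Units.ext e
    have := Nat.le_of_dvd (by omega) (orderOf_dvd_of_pow_eq_one e')
    omega
  have conjh : ∀ A : List ℤ, ∀ r, r < chevE6.nroots → ∀ t : K,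
      C.torusHom (cOf τ ζ A) * S.oe r t * (C.torusHom (cOf τ ζ A))⁻¹ =
        S.oe r ((tchar (cOf τ ζ A) r : K) * t) := fun A r hr t =>
    S.conj_oe (S.small_le_fixed (S.torusHom_mem_small (shift_cOf τ hτ ζ A))) rfl (torusHom_conj C _ hr t)
  subst hq'
  set h := C.torusHom (cOf τ ζ expB) with hh
  have hhS : h ∈ S.small := S.torusHom_mem_small (shift_cOf τ hτ ζ expB)
  obtain ⟨b1, b2, b3⟩ := dataB
  have h3 : ∀ u : Kˣ, u ^ (3 : ℤ) = 1 := fun u => by
    rw [show (3 : ℤ) = ((Nat.card Kˣ : ℕ) : ℤ) by rw [hN]; norm_num, zpow_natCast, pow_card_eq_one']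
  refine ⟨⟨h, hhS⟩, ⟨S.oe 42 1 * C.nWordElt K (gE6.oWord wE6), mul_mem o42 hnS⟩, ?_⟩
  refine Subgroup.map_injective S.small.subtype_injective ?_
  rw [← MonoidHom.range_eq_map, Subgroup.range_subtype, MonoidHom.map_closure, Set.image_pair]
  refine le_antisymm ((Subgroup.closure_le _).mpr (Set.pair_subset hhS (mul_mem o42 hnS))) ?_
  set n := C.nWordElt K (gE6.oWord wE6) with hndef
  set M := Subgroup.closure ({h, S.oe 42 (1 : K) * n} : Set (GL chevE6.Idx K))
  show S.small ≤ M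
  have hhM : h ∈ M := Subgroup.subset_closure (Or.inl rfl)
  have hb : S.oe 42 (1 : K) * n ∈ M := Subgroup.subset_closure (Or.inr rfl)
  have hval : ∀ r, tchar (cOf τ ζ expB) r = ζ ^ (pP expB r + 2 * pQ expB r) := by
    intro r
    rw [tchar_cOf, hTz, ← zpow_natCast, ← zpow_mul, ← zpow_add]
    rfl
  have hcomm : n * h * n⁻¹ = h := conj_torusHom_of_eq C hW fun r hr => by
    rw [hval, hval]
    obtain ⟨k, hk⟩ := Int.dvd_of_emod_eq_zero (b3 r hr)
    rw [show pP expB (act chevE6 (gE6.oWord wE6) r) + 2 * pQ expB (act chevE6 (gE6.oWord wE6) r) =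
      pP expB r + 2 * pQ expB r + 3 * k by linarith, zpow_add, zpow_mul, h3, one_zpow, mul_one]
  set χ : Kˣ := tchar (cOf τ ζ expB) 42 with hχ
  have hχgen : ∀ u : Kˣ, ∃ j : ℕ, χ ^ j = u := by
    intro u
    have e : χ⁻¹ = ζ := by
      rw [hχ, hval, b1, b2, mul_zero, add_zero, inv_eq_iff_mul_eq_one]
      rw [← zpow_add_one]
      exact h3 ζ
    have hmem : u ∈ Subgroup.zpowers χ⁻¹ := e ▸ hζ u
    rw [Subgroup.zpowers_inv] at hmem
    exact mem_powers_iff_mem_zpowers.mpr hmem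
  have conjh' : ∀ t : K, h * S.oe 42 t * h⁻¹ = S.oe 42 ((χ : K) * t) := fun t => conjh expB 42 l42 t
  set c₀ : K := 1 - (χ : K) with hc₀
  have hc₀M : S.oe 42 c₀ ∈ M := by
    have h5 := mul_mem (mul_mem (mul_mem hb hhM) (inv_mem hb)) (inv_mem hhM)
    rw [show S.oe 42 (1 : K) * n * h * (S.oe 42 (1 : K) * n)⁻¹ * h⁻¹ =
      S.oe 42 1 * ((n * h * n⁻¹) * (S.oe 42 (1 : K))⁻¹ * h⁻¹) by group, hcomm, S.oe_inv pos42, conjh',
      S.oe_add pos42, mul_neg, mul_one, ← sub_eq_add_neg] at h5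
    exact h5
  have hc₀ne : c₀ ≠ 0 := by
    intro e
    obtain ⟨j, hj⟩ := hχgen ζ
    rw [show χ = 1 from Units.ext (sub_eq_zero.mp e).symm, one_pow] at hj
    rw [← hj, orderOf_one] at hord'
    omega
  have powconj : ∀ (j : ℕ) (t : K), S.oe 42 t ∈ M → S.oe 42 ((χ : K) ^ j * t) ∈ M := by
    intro j
    induction j with
    | zero => intro t ht; simpa using ht
    | succ j ih =>
      intro t ht
      have := mul_mem (mul_mem hhM (ih t ht)) (inv_mem hhM)
      rwa [conjh', ← mul_assoc, ← pow_succ'] at this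
  have f42 : Full S M 42 := by
    intro t _
    by_cases ht : t = 0
    · rw [ht, S.oe_zero l42]; exact one_mem M
    obtain ⟨j, hj⟩ := hχgen (Units.mk0 (t / c₀) (div_ne_zero ht hc₀ne))
    have := powconj j c₀ hc₀M
    rwa [← Units.val_pow_eq_pow_val, hj, Units.val_mk0, div_mul_cancel₀ _ hc₀ne] at this
  have hnM : n ∈ M := by simpa using mul_mem (inv_mem (f42 1 (v2 42 p42 1))) hb
  have h49 : Full S M 49 := full_rot S hW hn hnM ⟨l42, a42, p49.trans p42.symm⟩ f42
  exact small_le_of_full τ hτ hne hnM h49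

theorem two_gen_main {q : ℕ} (hq : IsPrimePow q) (hK : Fintype.card K = q ^ 2) (hτq : ∀ x, τ x = x ^ q) :
    ∃ a b : ↥(tE6 τ hτ).small, Subgroup.closure ({a, b} : Set ↥(tE6 τ hτ).small) = ⊤ := by
  have := hq.two_le
  by_cases hbig : 3 ≤ q
  · exact two_gen_big τ hτ hbig hq hK hτq
  · exact two_gen_four τ hτ (show q = 2 by omega) hq hK hτq

/-- The groups ²E₆(q) are generated by two elements. -/
theorem two_gen {q : ℕ} (hq : IsPrimePow q) (hK : Fintype.card K = q ^ 2) :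
    ∃ a b : ↥(twistedE6 K q), Subgroup.closure ({a, b} : Set ↥(twistedE6 K q)) = ⊤ := by
  obtain ⟨τ, hτq, hτo, -, -⟩ := exists_frob (o := 2) (by norm_num) hq hK
  rw [E6_small_eq τ hτo hτq]
  exact two_gen_main τ hτo hq hK hτq

end Cfsg.Agent.Chev.E6TwoGen
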